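import Cfsg.Agent.H2.AutPSp.Structure

/-!
The outer automorphism group of Sp_4(2^f) is cyclic of order 2f.
-/

set_option autoImplicit false

namespace Cfsg.Agent.H2.AutPSp

open Matrix

variable {F : Type*} [Field F]

/-- Outer automorphisms of Sp_4 in characteristic two. -/
theorem out_psp_four_two [Fintype F] {f : ℕ} (hf : 1 ≤ f) (hF : Fintype.card F = 2 ^ f) :
    IsCyclic (Cfsg.Out (Cfsg.PSp 2 F)) ∧ Nat.card (Cfsg.Out (Cfsg.PSp 2 F)) = 2 * f := by
  classical
  have : Fact (Nat.Prime 2) := ⟨Nat.prime_two⟩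
  have h2 : (2 : F) = 0 := by
    have h0 : ((2 : ℕ) : F) ^ f = 0 := by
      rw [← Nat.cast_pow, ← hF]; exact Nat.cast_card_eq_zero F
    exact_mod_cast eq_zero_of_pow_eq_zero h0
  have : CharP F 2 := CharTwo.of_one_ne_zero_of_two_eq_zero one_ne_zero h2
  have hcenter : Subgroup.center (Cfsg.PSp 2 F) = ⊥ := by
    refine (Subgroup.eq_bot_iff_forall _).mpr fun x hx => ?_
    obtain ⟨y, rfl⟩ := (projEquiv h2).surjective x
    have hy : y ∈ Subgroup.center (Matrix.symplecticGroup (Fin 2) F) :=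
      Subgroup.mem_center_iff.mpr fun z => (projEquiv h2).injective (by
        rw [map_mul, map_mul]; exact Subgroup.mem_center_iff.mp hx _)
    rw [center_eq_bot_char_two h2] at hy
    rw [Subgroup.mem_bot.mp hy, map_one]
  have hInn : Nat.card (Cfsg.Inn (Cfsg.PSp 2 F)) = Nat.card (Cfsg.PSp 2 F) := by
    refine (Nat.card_congr (Equiv.ofBijective (MulAut.conj : Cfsg.PSp 2 F →* MulAut (Cfsg.PSp 2 F)).rangeRestrict
      ⟨?_, MonoidHom.rangeRestrict_surjective _⟩)).symm
    intro a b hab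
    have h1 : (MulAut.conj a : MulAut (Cfsg.PSp 2 F)) = MulAut.conj b := congrArg Subtype.val hab
    have h2' : b⁻¹ * a ∈ Subgroup.center (Cfsg.PSp 2 F) := Subgroup.mem_center_iff.mpr fun z => by
      have h3 := congrArg (fun e : MulAut (Cfsg.PSp 2 F) => e z) h1
      simp only [MulAut.conj_apply] at h3
      calc z * (b⁻¹ * a) = b⁻¹ * (b * z * b⁻¹) * a := by group
        _ = b⁻¹ * (a * z * a⁻¹) * a := by rw [h3]
        _ = b⁻¹ * a * z := by group
    rw [hcenter] at h2'
    exact (inv_mul_eq_one.mp (Subgroup.mem_bot.mp h2')).symm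
  have hcard : Nat.card (Cfsg.Out (Cfsg.PSp 2 F)) = 2 * f := by
    have h1 := card_mulAut_psp (F := F) (p := 2) hf hF (le_refl 2)
    rw [if_pos ⟨rfl, rfl⟩, Subgroup.card_eq_card_quotient_mul_card_subgroup (Cfsg.Inn (Cfsg.PSp 2 F)), hInn] at h1
    have hg : Nat.gcd 2 (2 ^ f - 1) = 1 := by
      apply Nat.Coprime.gcd_eq_one
      rw [Nat.coprime_two_left]
      exact Nat.Even.sub_odd Nat.one_le_two_pow (Nat.even_pow.mpr ⟨even_two, by omega⟩) odd_one
    rw [hg, mul_one] at h1
    exact Nat.eq_of_mul_eq_mul_right Nat.card_pos h1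
  refine ⟨?_, hcard⟩
  set γ := dualAut h2 with hγ
  let c : Cfsg.Out (Cfsg.PSp 2 F) := QuotientGroup.mk γ
  refine ⟨⟨c, fun y => ?_⟩⟩
  -- squaring the exceptional automorphism gives the Frobenius
  have hsq : γ * γ = semiAut 1 (one_mem _) (frobeniusEquiv F 2) := by
    refine MulEquiv.ext fun x => ?_
    obtain ⟨s, rfl⟩ := QuotientGroup.mk'_surjective _ x
    have hγs : ∀ t, γ (QuotientGroup.mk' _ t) = QuotientGroup.mk' _ (dualHom h2 t) := fun t =>
      congrArg (fun y => projEquiv h2 (dualHom h2 y)) ((projEquiv h2).symm_apply_apply t)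
    rw [MulAut.mul_apply, hγs, hγs, semiAut_mk]
    refine congrArg (QuotientGroup.mk' _) (Subtype.ext ?_)
    show dualMat (dualMat _) = semiMat 1 _ _
    rw [dualHom_dualHom h2]
    simp [semiMat, frobeniusEquiv_def]
    rfl
  have hpow : ∀ (i : ℕ) (σ : F ≃+* F), (∀ x, σ x = x ^ 2 ^ i) →
      semiAut (1 : GL (Fin 2 ⊕ Fin 2) F) (one_mem _) σ = (γ * γ) ^ i := by
    intro i
    induction i with
    | zero =>
      intro σ hσ
      rw [pow_zero, ← semiAut_one (m := 2) (F := F)]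
      exact semiAut_congr _ _ rfl (RingEquiv.ext fun x => by simpa using hσ x)
    | succ i ih =>
      intro σ hσ
      rw [pow_succ', ← ih (σ.trans (frobeniusEquiv F 2).symm) (fun x => by
        apply (frobeniusEquiv F 2).injective
        rw [RingEquiv.trans_apply, RingEquiv.apply_symm_apply, hσ, frobeniusEquiv_def, pow_succ, pow_mul]),
        hsq, semiAut_mul]
      exact semiAut_congr _ _ (by simp) (RingEquiv.ext fun x => by simp)
  have hsemi : ∀ (g : GL (Fin 2 ⊕ Fin 2) F) (hg : g ∈ Cfsg.GSp 2 F) (σ : F ≃+* F),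
      (QuotientGroup.mk (semiAut g hg σ) : Cfsg.Out (Cfsg.PSp 2 F)) ∈ Subgroup.zpowers c := by
    intro g hg σ
    obtain ⟨i, hi⟩ : ∃ i : ℕ, ∀ x, σ x = x ^ 2 ^ i := by
      let alg : Algebra (ZMod 2) F := ZMod.algebra F 2
      let := alg
      let σ' : F ≃ₐ[ZMod 2] F := AlgEquiv.ofRingEquiv (f := σ) (fun r =>
        DFunLike.congr_fun (RingHom.ext_zmod ((σ : F →+* F).comp (algebraMap (ZMod 2) F))
          (algebraMap (ZMod 2) F)) r)
      obtain ⟨⟨i, hi⟩, he⟩ := (FiniteField.bijective_frobeniusAlgEquivOfAlgebraic_pow (ZMod 2) F).surjective σ'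
      refine ⟨i, fun x => ?_⟩
      have h := congrArg (fun e : F ≃ₐ[ZMod 2] F => e x) he
      simp only [AlgEquiv.coe_pow, FiniteField.coe_frobeniusAlgEquivOfAlgebraic, pow_iterate, ZMod.card] at h
      exact h.symm
    obtain ⟨k, hk⟩ := id hg
    obtain ⟨r, hr⟩ := FiniteField.isSquare_of_char_two (F := F) (ringChar.eq F 2) (k : F)
    have hr0 : r ≠ 0 := fun h => k.ne_zero (by rw [hr, h, mul_zero])
    have hinn := semiAut_refl_mem_inn le_rfl hg (Units.mk0 r hr0) (fun u v => by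
      rw [hk, Units.val_mul, Units.val_mk0, ← hr])
    have hdec : semiAut g hg σ = semiAut g hg (RingEquiv.refl F) * semiAut 1 (one_mem _) σ := by
      rw [semiAut_mul]
      exact semiAut_congr _ _ (by simp) (RingEquiv.ext fun x => rfl)
    rw [hdec, QuotientGroup.mk_mul, (QuotientGroup.eq_one_iff _).mpr hinn, one_mul, hpow i σ hi]
    exact pow_mem (mul_mem (Subgroup.mem_zpowers c) (Subgroup.mem_zpowers c)) i
  obtain ⟨α, rfl⟩ := QuotientGroup.mk_surjective y
  by_cases hα : ∀ x, IsPTransv x → IsPTransv (α x)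
  · obtain ⟨g, hg, σ, rfl⟩ := exists_semilinear_of_preserves le_rfl α hα
    exact hsemi g hg σ
  · have hpres : ∀ x, IsPTransv x → IsPTransv ((γ⁻¹ * α) x) := preserves_inv_mul h2 hα (not_preserves_dualAut h2)
    obtain ⟨g, hg, σ, he⟩ := exists_semilinear_of_preserves le_rfl (γ⁻¹ * α) hpres
    have : α = γ * semiAut g hg σ := by rw [← he, mul_inv_cancel_left]
    rw [this, QuotientGroup.mk_mul]
    exact mul_mem (Subgroup.mem_zpowers c) (hsemi g hg σ)

end Cfsg.Agent.H2.AutPSp
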